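import Cfsg.Agent.Lib.Helper11.WB2c0.K0

set_option autoImplicit false
set_option maxRecDepth 100000

namespace Cfsg.Agent.Lib.Helper11.WB2c0

theorem chkAll : ∀ j < 1, blk fc sc rt.get INV isH j = true :=
  guardB_spec (D := 0) b0 (by norm_num)

theorem clAll : ∀ jb < 1, cblk fc nc cc (256 * 1) 2 281474976710656 gens jb = true :=
  guardB_spec (D := 0) c0 (by norm_num)

theorem hN0 : getN nc 0 = 0 := by decide +kernel


end Cfsg.Agent.Lib.Helper11.WB2c0
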